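import Mathlib
import Cfsg.Agent.H319.FC.Iota

/-!
# S5764, SP4G: geometry of the subgroup `SL_2(F) × SL_2(F)` of `Sp_4(F)` (helper193)

* `L1` : an element of odd order with a fixed vector is conjugate to `iota (a, 1)`;
* `L2` : an element preserving a hyperbolic plane is conjugate to `iota (a, b)`;
* `L3`, `L4` : centralizers;
* `L5` : `z² + s z + 1 = 0` for `z = iota (a, b)`, `tr a = tr b = s`.
-/

set_option autoImplicit false

namespace Cfsg.Agent.H193.FC

open Cfsg Matrix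
open Cfsg.Agent.ClassicalGeometry.SympBasic Cfsg.Agent.ClassicalGeometry.SympAutSemi
open Cfsg.Agent.ClassicalGeometry.Sp4Graph
open Cfsg.Agent.H319.FC

universe u

variable {F : Type u} [Field F] [CharP F 2]

theorem solve2 {A B C D X Y : F} (hdet : A * D + C * B = 1) (h1 : A * Y + C * X = 0) (h2 : B * Y + D * X = 0) :
    X = 0 ∧ Y = 0 := by
  have h22 : (2 : F) = 0 := CharTwo.two_eq_zero
  constructor
  · linear_combination (-X) * hdet + A * h2 + B * h1 - A * B * Y * h22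
  · linear_combination (-Y) * hdet + D * h1 + C * h2 - C * D * X * h22

/-- a matrix preserving `⟨e₁, f₁⟩` -/
theorem exists_iota (z : Sp4 F) (h10 : z.1 (.inl 1) (.inl 0) = 0) (h30 : z.1 (.inr 1) (.inl 0) = 0)
    (h12 : z.1 (.inl 1) (.inr 0) = 0) (h32 : z.1 (.inr 1) (.inr 0) = 0) : ∃ p : SL2 F × SL2 F, z = iota p := by
  have hn : ∀ y : F, -y = y := fun y => CharTwo.neg_eq y
  have c1 := col_rel z.2 (.inl 0) (.inr 0)
  have c2 := col_rel z.2 (.inl 0) (.inl 1)
  have c3 := col_rel z.2 (.inr 0) (.inl 1)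
  have c4 := col_rel z.2 (.inl 0) (.inr 1)
  have c5 := col_rel z.2 (.inr 0) (.inr 1)
  have c6 := col_rel z.2 (.inl 1) (.inr 1)
  rw [if_pos (by decide)] at c1 c6
  rw [if_neg (by decide)] at c2 c3 c4 c5
  rw [h10, h30, zero_mul, zero_mul, add_zero, add_zero] at c1 c2 c4
  rw [h12, h32, zero_mul, zero_mul, add_zero, add_zero] at c3 c5
  obtain ⟨h01, h21⟩ := solve2 c1 c2 c3
  obtain ⟨h03, h23⟩ := solve2 c1 c4 c5
  rw [h01, h21, zero_mul, zero_mul, zero_add, zero_add] at c6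
  refine ⟨(⟨!![z.1 (.inl 0) (.inl 0), z.1 (.inl 0) (.inr 0); z.1 (.inr 0) (.inl 0), z.1 (.inr 0) (.inr 0)], ?_⟩,
    ⟨!![z.1 (.inl 1) (.inl 1), z.1 (.inl 1) (.inr 1); z.1 (.inr 1) (.inl 1), z.1 (.inr 1) (.inr 1)], ?_⟩), ?_⟩
  · rw [Matrix.det_fin_two_of, sub_eq_add_neg, hn]
    linear_combination c1
  · rw [Matrix.det_fin_two_of, sub_eq_add_neg, hn]
    linear_combination c6
  · apply Subtype.ext
    rw [iota_coe]
    ext i j
    rcases i with i | i <;> rcases j with j | j <;> fin_cases i <;> fin_cases j <;>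
      simp [blk, h10, h30, h12, h32, h01, h21, h03, h23]

/-- a matrix preserving `⟨e₂, f₂⟩` -/
theorem exists_iota' (z : Sp4 F) (h01 : z.1 (.inl 0) (.inl 1) = 0) (h21 : z.1 (.inr 0) (.inl 1) = 0)
    (h03 : z.1 (.inl 0) (.inr 1) = 0) (h23 : z.1 (.inr 0) (.inr 1) = 0) : ∃ p : SL2 F × SL2 F, z = iota p := by
  have c1 := col_rel z.2 (.inl 1) (.inr 1)
  have c2 := col_rel z.2 (.inl 1) (.inl 0)
  have c3 := col_rel z.2 (.inr 1) (.inl 0)
  have c4 := col_rel z.2 (.inl 1) (.inr 0)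
  have c5 := col_rel z.2 (.inr 1) (.inr 0)
  rw [if_pos (by decide)] at c1
  rw [if_neg (by decide)] at c2 c3 c4 c5
  rw [h01, h21, zero_mul, zero_mul, zero_add, zero_add] at c1 c2 c4
  rw [h03, h23, zero_mul, zero_mul, zero_add, zero_add] at c3 c5
  obtain ⟨h10, h30⟩ := solve2 c1 c2 c3
  obtain ⟨h12, h32⟩ := solve2 c1 c4 c5
  exact exists_iota z h10 h30 h12 h32

theorem mulVec_single_apply (M : Matrix I4 I4 F) (i j : I4) : (M *ᵥ (Pi.single j 1)) i = M i j := by
  rw [Matrix.mulVec_single_one]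
  rfl

theorem form_e2_f2 : sympForm 2 F (Pi.single (.inl 1) 1) (Pi.single (.inr 1) 1) = 1 := by
  rw [sympForm_eq]
  simp

theorem form_e1_f1 : sympForm 2 F (Pi.single (.inl 0) 1) (Pi.single (.inr 0) 1) = 1 := by
  rw [sympForm_eq]
  simp

/-- **L1** -/
theorem L1 (z : Sp4 F) (hz1 : z ≠ 1) (ho : Odd (orderOf z)) (v : V4 F) (hv : v ≠ 0) (hzv : rho 2 F z v = v) :
    ∃ (h : Sp4 F) (a : SL2 F), a ≠ 1 ∧ z = h * iota (a, 1) * h⁻¹ := by
  obtain ⟨w, hw⟩ : ∃ w, sympForm 2 F v w = 1 := by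
    obtain ⟨b, hb⟩ : ∃ b, sympForm 2 F v b ≠ 0 := by
      by_contra h
      push Not at h
      exact hv (eq_zero_of_forall_sympForm_right h)
    exact ⟨(sympForm 2 F v b)⁻¹ • b, by rw [sympForm_smul_right, inv_mul_cancel₀ hb]⟩
  -- the trace of `w`
  have hpow : ∀ i : ℕ, rho 2 F (z ^ i) v = v := by
    intro i
    induction i with
    | zero => simp
    | succ i ih => rw [pow_succ, map_mul, Equiv.Perm.mul_apply, hzv, ih]
  obtain ⟨w', hw'⟩ : ∃ w', w' = ∑ i ∈ Finset.range (orderOf z), rho 2 F (z ^ i) w := ⟨_, rfl⟩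
  have hfix : rho 2 F z w' = w' := by
    rw [rho_apply, hw', Matrix.mulVec_sum]
    have e1 : ∀ i ∈ Finset.range (orderOf z), (z : Matrix I4 I4 F) *ᵥ (rho 2 F (z ^ i) w) = rho 2 F (z ^ (i + 1)) w := by
      intro i _
      rw [pow_succ', map_mul, Equiv.Perm.mul_apply]
      rfl
    rw [Finset.sum_congr rfl e1]
    have h1 := Finset.sum_range_succ' (fun i => rho 2 F (z ^ i) w) (orderOf z)
    have h2 := Finset.sum_range_succ (fun i => rho 2 F (z ^ i) w) (orderOf z)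
    rw [h2, pow_orderOf_eq_one, pow_zero] at h1
    exact (add_right_cancel h1).symm
  have hform : sympForm 2 F v w' = 1 := by
    have e2 : ∀ (n : ℕ) (g : ℕ → V4 F), sympForm 2 F v (∑ i ∈ Finset.range n, g i)
        = ∑ i ∈ Finset.range n, sympForm 2 F v (g i) := by
      intro n g
      induction n with
      | zero => simp
      | succ n ih => rw [Finset.sum_range_succ, Finset.sum_range_succ, sympForm_add_right, ih]
    rw [hw', e2]
    have e3 : ∀ i ∈ Finset.range (orderOf z), sympForm 2 F v (rho 2 F (z ^ i) w) = 1 := by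
      intro i _
      rw [← hw]
      conv_lhs => rw [← hpow i]
      exact sympForm_rho _ _ _
    rw [Finset.sum_congr rfl e3, Finset.sum_const, Finset.card_range, nsmul_eq_mul, mul_one]
    obtain ⟨k, hk⟩ := ho
    rw [hk]
    push_cast
    rw [CharTwo.two_eq_zero, zero_mul, zero_add]
  obtain ⟨h, -, h1, h2⟩ := exists_transvGroup_hyperbolic (form_e2_f2 (F := F)) hform
  have hfe : ∀ j : I4, (h : Matrix I4 I4 F) *ᵥ Pi.single j 1 = v ∨ (h : Matrix I4 I4 F) *ᵥ Pi.single j 1 = w' →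
      ((h⁻¹ * z * h : Sp4 F) : Matrix I4 I4 F) *ᵥ Pi.single j 1 = Pi.single j 1 := by
    intro j hj
    have e4 : rho 2 F (h⁻¹ * z * h) (Pi.single j 1) = Pi.single j 1 := by
      rw [map_mul, map_mul, Equiv.Perm.mul_apply, Equiv.Perm.mul_apply, map_inv]
      rw [Equiv.Perm.inv_eq_iff_eq]
      have e5 : rho 2 F h (Pi.single j 1) = (h : Matrix I4 I4 F) *ᵥ Pi.single j 1 := rfl
      rw [e5]
      rcases hj with hj | hj
      · rw [hj, hzv]
      · rw [hj, hfix]
    exact e4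
  have g1 := hfe _ (Or.inl h1)
  have g2 := hfe _ (Or.inr h2)
  have k1 : ∀ i : I4, (h⁻¹ * z * h : Sp4 F).1 i (.inl 1) = (Pi.single (.inl 1) 1 : I4 → F) i := by
    intro i
    rw [← g1, mulVec_single_apply]
  have k2 : ∀ i : I4, (h⁻¹ * z * h : Sp4 F).1 i (.inr 1) = (Pi.single (.inr 1) 1 : I4 → F) i := by
    intro i
    rw [← g2, mulVec_single_apply]
  obtain ⟨p, hp⟩ := exists_iota' (h⁻¹ * z * h) (by rw [k1]; simp) (by rw [k1]; simp) (by rw [k2]; simp)
    (by rw [k2]; simp)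
  rw [hp] at k1 k2
  have hp2 : p.2 = 1 := by
    apply Subtype.ext
    ext i j
    have q1 := k1 (.inl 1)
    have q2 := k1 (.inr 1)
    have q3 := k2 (.inl 1)
    have q4 := k2 (.inr 1)
    rw [iota_coe] at q1 q2 q3 q4
    simp [blk] at q1 q2 q3 q4
    fin_cases i <;> fin_cases j <;> simp [q1, q2, q3, q4]
  have hz : z = h * iota (p.1, 1) * h⁻¹ := by
    have : iota (p.1, 1) = h⁻¹ * z * h := by rw [hp, ← hp2]
    rw [this]
    group
  refine ⟨h, p.1, ?_, hz⟩
  intro h1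
  apply hz1
  rw [hz, h1]
  have : ((1 : SL2 F), (1 : SL2 F)) = 1 := rfl
  rw [this, map_one]
  group

/-- **L2** -/
theorem L2 (z : Sp4 F) (x y : V4 F) (hxy : sympForm 2 F x y = 1) (hx : rho 2 F z x ∈ Submodule.span F {x, y})
    (hy : rho 2 F z y ∈ Submodule.span F {x, y}) : ∃ (h : Sp4 F) (a b : SL2 F), z = h * iota (a, b) * h⁻¹ := by
  obtain ⟨h, -, h1, h2⟩ := exists_transvGroup_hyperbolic (form_e1_f1 (F := F)) hxy
  have key : ∀ j : I4, rho 2 F z ((h : Matrix I4 I4 F) *ᵥ Pi.single j 1) ∈ Submodule.span F {x, y} →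
      ∀ i : I4, i = .inl 1 ∨ i = .inr 1 → (h⁻¹ * z * h : Sp4 F).1 i j = 0 := by
    intro j hj i hi
    obtain ⟨α, β, hαβ⟩ := Submodule.mem_span_pair.1 hj
    have e4 : rho 2 F (h⁻¹ * z * h) (Pi.single j 1) = α • Pi.single (.inl 0) 1 + β • Pi.single (.inr 0) 1 := by
      rw [map_mul, map_mul, Equiv.Perm.mul_apply, Equiv.Perm.mul_apply, map_inv]
      rw [Equiv.Perm.inv_eq_iff_eq]
      have e5 : rho 2 F h (Pi.single j 1) = (h : Matrix I4 I4 F) *ᵥ Pi.single j 1 := rfl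
      rw [e5, ← hαβ, rho_apply, Matrix.mulVec_add, Matrix.mulVec_smul, Matrix.mulVec_smul, h1, h2]
    have e6 : (h⁻¹ * z * h : Sp4 F).1 i j = (rho 2 F (h⁻¹ * z * h) (Pi.single j 1)) i :=
      (mulVec_single_apply _ i j).symm
    rw [e6, e4]
    rcases hi with rfl | rfl <;> simp
  rw [← h1] at hx
  rw [← h2] at hy
  have hx' := key (.inl 0) (by rw [h1, ← h1]; simpa only [h1, h2] using hx)
  have hy' := key (.inr 0) (by simpa only [h1, h2] using hy)
  obtain ⟨p, hp⟩ := exists_iota (h⁻¹ * z * h) (hx' _ (Or.inl rfl)) (hx' _ (Or.inr rfl)) (hy' _ (Or.inl rfl))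
    (hy' _ (Or.inr rfl))
  refine ⟨h, p.1, p.2, ?_⟩
  have : iota (p.1, p.2) = h⁻¹ * z * h := by rw [hp]
  rw [this]
  group

omit [CharP F 2] in
/-- Cayley–Hamilton -/
theorem cayley (s : F) (b : SL2 F) : b.1 * b.1 + s • b.1 + 1 = (s + Matrix.trace b.1) • b.1 := by
  have hb := b.2
  rw [Matrix.det_fin_two] at hb
  ext i j
  fin_cases i <;> fin_cases j <;>
    simp [Matrix.mul_apply, Fin.sum_univ_two, Matrix.trace_fin_two]
  · linear_combination (-1 : F) * hb
  · ring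
  · ring
  · linear_combination (-1 : F) * hb

omit [CharP F 2] in
theorem blk_poly (s : F) (a b : Matrix (Fin 2) (Fin 2) F) :
    blk a b * blk a b + s • blk a b + 1 = blk (a * a + s • a + 1) (b * b + s • b + 1) := by
  rw [blk_mul]
  ext i j
  rcases i with i | i <;> rcases j with j | j <;> fin_cases i <;> fin_cases j <;>
    simp [blk]

/-- **L3** -/
theorem L3 (a b : SL2 F) (hab : Matrix.trace a.1 ≠ Matrix.trace b.1) (X : Sp4 F)
    (hX : X * iota (a, b) = iota (a, b) * X) :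
    ∃ p : SL2 F × SL2 F, X = iota p ∧ p.1 * a = a * p.1 ∧ p.2 * b = b * p.2 := by
  have h22 : (2 : F) = 0 := CharTwo.two_eq_zero
  obtain ⟨s, hs⟩ : ∃ s, s = Matrix.trace a.1 := ⟨_, rfl⟩
  obtain ⟨c, hc⟩ : ∃ c, c = s + Matrix.trace b.1 := ⟨_, rfl⟩
  have hc0 : c ≠ 0 := by
    intro h
    apply hab
    rw [hc, hs] at h
    linear_combination h - Matrix.trace b.1 * h22
  have hN : blk a.1 b.1 * blk a.1 b.1 + s • blk a.1 b.1 + 1 = blk 0 (c • b.1) := by
    rw [blk_poly, cayley, cayley, ← hc, ← hs]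
    have : s + s = 0 := by linear_combination s * h22
    rw [this, zero_smul]
  have hX' : X.1 * blk a.1 b.1 = blk a.1 b.1 * X.1 := congrArg Subtype.val hX
  have hNX : X.1 * blk 0 (c • b.1) = blk 0 (c • b.1) * X.1 := by
    rw [← hN, mul_add, mul_add, add_mul, add_mul, mul_one, one_mul, ← mul_assoc, hX', mul_assoc, hX', ← mul_assoc,
      Matrix.mul_smul, Matrix.smul_mul, hX']
  have hb := b.2
  rw [Matrix.det_fin_two] at hb
  have key : ∀ j : I4, j = .inl 0 ∨ j = .inr 0 → X.1 (.inl 1) j = 0 ∧ X.1 (.inr 1) j = 0 := by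
    intro j hj
    have e1 := congrFun (congrFun hNX (.inl 1)) j
    have e2 := congrFun (congrFun hNX (.inr 1)) j
    have f1 : c * (b.1 0 0 * X.1 (.inl 1) j + b.1 0 1 * X.1 (.inr 1) j) = 0 := by
      rcases hj with rfl | rfl <;>
      · simp [blk, Matrix.mul_apply, Fintype.sum_sum_type, Fin.sum_univ_two] at e1
        linear_combination -e1
    have f2 : c * (b.1 1 0 * X.1 (.inl 1) j + b.1 1 1 * X.1 (.inr 1) j) = 0 := by
      rcases hj with rfl | rfl <;>
      · simp [blk, Matrix.mul_apply, Fintype.sum_sum_type, Fin.sum_univ_two] at e2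
        linear_combination -e2
    have f1' := (mul_eq_zero.1 f1).resolve_left hc0
    have f2' := (mul_eq_zero.1 f2).resolve_left hc0
    constructor
    · linear_combination (-X.1 (.inl 1) j) * hb + b.1 1 1 * f1' - b.1 0 1 * f2'
    · linear_combination (-X.1 (.inr 1) j) * hb + b.1 0 0 * f2' - b.1 1 0 * f1'
  obtain ⟨p, rfl⟩ := exists_iota X (key _ (Or.inl rfl)).1 (key _ (Or.inl rfl)).2 (key _ (Or.inr rfl)).1
    (key _ (Or.inr rfl)).2
  rw [← map_mul, ← map_mul] at hX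
  have h1 := iota_injective hX
  exact ⟨p, rfl, congrArg Prod.fst h1, congrArg Prod.snd h1⟩

theorem trace_ne_zero_sl2 {a : SL2 F} (ha : a ≠ 1) (ho : Odd (orderOf a)) : Matrix.trace a.1 ≠ 0 := by
  intro h
  have h1 := cayley 0 a
  rw [h, zero_smul, add_zero, add_zero, zero_smul] at h1
  have h2 : a.1 * a.1 = 1 := by
    have hn : ∀ y : F, -y = y := fun y => CharTwo.neg_eq y
    have h3 : a.1 * a.1 = -1 := eq_neg_of_add_eq_zero_left h1
    rw [h3]
    ext i j
    rw [Matrix.neg_apply, hn]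
  have h3 : a ^ 2 = 1 := by
    apply Subtype.ext
    rw [sq]
    exact h2
  have h4 : orderOf a ∣ 2 := orderOf_dvd_of_pow_eq_one h3
  apply ha
  rw [← orderOf_eq_one_iff]
  rcases (Nat.dvd_prime Nat.prime_two).1 h4 with h5 | h5
  · exact h5
  · rw [h5] at ho
    exact absurd ho (by decide)

/-- **L4** -/
theorem L4 (a b : SL2 F) (ha : a ≠ 1) (hoa : Odd (orderOf a)) (X : Sp4 F)
    (h1 : X * iota (a, 1) = iota (a, 1) * X) (h2 : X * iota (1, b) = iota (1, b) * X) :
    ∃ p : SL2 F × SL2 F, X = iota p ∧ p.1 * a = a * p.1 ∧ p.2 * b = b * p.2 := by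
  have h22 : (2 : F) = 0 := CharTwo.two_eq_zero
  obtain ⟨p, rfl, h3, -⟩ := L3 a 1 (by
    have h4 := trace_ne_zero_sl2 ha hoa
    have h5 : Matrix.trace (1 : SL2 F).1 = 0 := by
      change Matrix.trace (1 : Matrix (Fin 2) (Fin 2) F) = 0
      rw [Matrix.trace_fin_two]
      simp
      linear_combination h22
    rw [h5]
    exact h4) X h1
  refine ⟨p, rfl, h3, ?_⟩
  rw [← map_mul, ← map_mul] at h2
  exact congrArg Prod.snd (iota_injective h2)

/-- **L5** -/
theorem L5 (a b : SL2 F) (hab : Matrix.trace a.1 = Matrix.trace b.1) (v : V4 F) :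
    rho 2 F (iota (a, b)) (rho 2 F (iota (a, b)) v) + Matrix.trace a.1 • rho 2 F (iota (a, b)) v + v = 0 := by
  have h22 : (2 : F) = 0 := CharTwo.two_eq_zero
  have hs : Matrix.trace a.1 + Matrix.trace a.1 = 0 := by linear_combination Matrix.trace a.1 * h22
  have hN : blk a.1 b.1 * blk a.1 b.1 + Matrix.trace a.1 • blk a.1 b.1 + 1 = 0 := by
    rw [blk_poly, cayley, cayley, ← hab, hs, zero_smul, zero_smul]
    ext i j
    rcases i with i | i <;> rcases j with j | j <;> fin_cases i <;> fin_cases j <;> simp [blk]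
  have h1 : (blk a.1 b.1 * blk a.1 b.1 + Matrix.trace a.1 • blk a.1 b.1 + 1) *ᵥ v = 0 := by
    rw [hN, Matrix.zero_mulVec]
  rw [Matrix.add_mulVec, Matrix.add_mulVec, Matrix.one_mulVec, Matrix.smul_mulVec, ← Matrix.mulVec_mulVec] at h1
  exact h1

end Cfsg.Agent.H193.FC
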